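import Cfsg.Agent.UnitGeo.RatStructure

/-! Maximality of a symplectic subfield group in the special unitary group. -/

set_option autoImplicit false
set_option linter.unusedSectionVars false

namespace CfsgLib.UnitGeo

open Cfsg Module CfsgLib.Unitary CfsgLib.Subfield54
open scoped Matrix MatrixGroups

variable {F : Type*} [Field F] {n q : ℕ} {F₀ : Subfield F} {ζ : F} {P : GL (Fin n) F}
variable [Fintype F] (hF : Fintype.card F = q ^ 2)

/-- A scaled root element at two rational vectors lies in `M`. -/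
def RootIn (q : ℕ) (M : Subgroup (GL (Fin n) F)) (b e : Fin n → F) (s : F) : Prop := MIn M (rMat q b (s • e))

include hF

lemma rMat_mul_gen {a a' b : Fin n → F} (hb : hermForm n F q b b = 0) (ha : hermForm n F q b a = 0)
    (ha' : hermForm n F q b a' = 0) :
    rMat q b a * rMat q b a' = rMat q b (a + a') * tMat q b (-hermForm n F q a' a) := by
  refine matrix_ext fun x => ?_
  rw [← Matrix.mulVec_mulVec, ← Matrix.mulVec_mulVec, rMat_mulVec hb, rMat_mulVec hb, tMat_mulVec, rMat_mulVec hb]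
  simp only [herm_sub_left, herm_add_left, herm_smul_left, herm_add_right hF, hb, ha, ha', herm_eq_zero_comm hF ha',
    herm_eq_zero_comm hF ha]
  module

lemma rMat_zero_right {b : Fin n → F} (hb : hermForm n F q b b = 0) : rMat q b 0 = 1 :=
  matrix_ext fun x => by rw [rMat_mulVec hb, Matrix.one_mulVec, herm_zero_right hF]; simp

lemma rMat_zero_left (y : Fin n → F) : rMat q 0 y = 1 :=
  matrix_ext fun x => by
    rw [rMat_mulVec (herm_zero_left _), Matrix.one_mulVec, herm_zero_right hF]; simp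

lemma rMat_smul_left {a b : Fin n → F} (ha : hermForm n F q a a = 0) (l : F) :
    rMat q (l • a) b = rMat q a (l ^ q • b) := by
  refine matrix_ext fun x => ?_
  rw [rMat_mulVec ha, rMat_mulVec (by rw [herm_smul_left, herm_smul_right, ha, mul_zero, mul_zero]),
    herm_smul_right, herm_smul_right, pow_q_q hF]
  module

lemma tMat_split {a b : Fin n → F} (haa : hermForm n F q a a = 0) (hbb : hermForm n F q b b = 0)
    (hab : hermForm n F q a b = 0) (δ : F) {k : F} (hk : k + k ^ q = 0) :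
    tMat q (a + δ • b) k = tMat q a k * tMat q b (k * δ ^ (q + 1)) * rMat q a ((k * δ) • b) := by
  refine matrix_ext fun x => ?_
  have hk' : k ^ q = -k := by linear_combination hk
  rw [← Matrix.mulVec_mulVec, ← Matrix.mulVec_mulVec, tMat_mulVec, tMat_mulVec, tMat_mulVec, rMat_mulVec haa]
  simp only [herm_sub_left, herm_add_left, herm_smul_left, herm_add_right hF, herm_smul_right, haa, hbb, hab,
    herm_eq_zero_comm hF hab, mul_pow, hk']
  module

lemma tMat_cancel {v : Fin n → F} (hv : hermForm n F q v v = 0) (k : F) : tMat q v (-k) * tMat q v k = 1 := by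
  rw [tMat_mul hF hv, neg_add_cancel, tMat_zero hF]

/-- From a split transvection one recovers the root element. -/
lemma rMat_of_split {M : Subgroup (GL (Fin n) F)} {a b : Fin n → F} (haa : hermForm n F q a a = 0)
    (hbb : hermForm n F q b b = 0) (hab : hermForm n F q a b = 0) (δ : F) {k : F} (hk : k + k ^ q = 0)
    (h1 : MIn M (tMat q a (-k))) (h2 : MIn M (tMat q b (-(k * δ ^ (q + 1))))) (h : MIn M (tMat q (a + δ • b) k)) :
    MIn M (rMat q a ((k * δ) • b)) := by
  have h3 := h2.mul (h1.mul h)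
  rwa [tMat_split hF haa hbb hab δ hk, mul_assoc (tMat q a k), ← mul_assoc (tMat q a (-k)), tMat_cancel hF haa,
    one_mul, ← mul_assoc, tMat_cancel hF hbb, one_mul] at h3

variable (hS : RStr q F₀ ζ P)
include hS

lemma exists_scalar_decomp {δ : F} (hδ : δ ∉ F₀) (l : F) : ∃ x ∈ F₀, ∃ y ∈ F₀, l = x + δ * y := by
  have hd : δ - δ ^ q ≠ 0 := fun h => hδ ((hS.fix δ).2 (sub_eq_zero.1 h).symm)
  have hd' : δ ^ q - δ ≠ 0 := fun h => hd (by linear_combination -h)
  refine ⟨_, (hS.fix (l - δ * ((l - l ^ q) / (δ - δ ^ q)))).2 ?_, _, (hS.fix ((l - l ^ q) / (δ - δ ^ q))).2 ?_,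
    by ring⟩
  · simp only [sub_pow_q hF, mul_pow, div_pow, pow_q_q hF]
    field_simp
    ring
  · simp only [sub_pow_q hF, div_pow, pow_q_q hF]
    rw [div_eq_div_iff hd' hd]
    ring

lemma exists_W_of_not_le {S T : Submodule F (Fin n → F)} {δ : F} (hδ : δ ∉ F₀)
    (hcomp : ∀ a b, InW F₀ P a → InW F₀ P b → a + δ • b ∈ S → a ∈ S ∧ b ∈ S) (h : ¬ S ≤ T) :
    ∃ w, InW F₀ P w ∧ w ∈ S ∧ w ∉ T := by
  obtain ⟨x, hxS, hxT⟩ := SetLike.not_le_iff_exists.1 h
  obtain ⟨a, b, ha, hb, rfl, -⟩ := exists_decomp hF hS hδ x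
  obtain ⟨haS, hbS⟩ := hcomp a b ha hb hxS
  by_cases haT : a ∈ T
  · exact ⟨b, hb, hbS, fun hbT => hxT (T.add_mem haT (T.smul_mem _ hbT))⟩
  · exact ⟨a, ha, haS, haT⟩

lemma exists_perp_pair_avoid (hn : 5 ≤ n) {b e : Fin n → F} (hb : InW F₀ P b) (he : InW F₀ P e) :
    ∃ f, InW F₀ P f ∧ hermForm n F q f b = 0 ∧ hermForm n F q f e = 0 ∧
      f ∉ Submodule.span F {b} ⊔ Submodule.span F {e} := by
  obtain ⟨δ, hδ⟩ := exists_delta hF hS
  let S : Submodule F (Fin n → F) := LinearMap.ker (hermLeft q b) ⊓ LinearMap.ker (hermLeft q e)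
  obtain ⟨f, hf, hfS, hfT⟩ := exists_W_of_not_le hF hS (S := S)
    (T := Submodule.span F {b} ⊔ Submodule.span F {e}) hδ (fun a c ha hc h => by
      simp only [S, Submodule.mem_inf, LinearMap.mem_ker, hermLeft_apply] at h ⊢
      obtain ⟨h1, h2⟩ := comp_perp hF hS hδ ha hc hb h.1
      obtain ⟨h3, h4⟩ := comp_perp hF hS hδ ha hc he h.2
      exact ⟨⟨h1, h3⟩, h2, h4⟩) (by
      intro hle
      have h1 := Submodule.finrank_mono hle
      have h2 := Submodule.finrank_add_le_finrank_add_finrank (Submodule.span F {b}) (Submodule.span F {e})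
      have h3 : ∀ y : Fin n → F, finrank F (Submodule.span F ({y} : Set (Fin n → F))) ≤ 1 := fun y =>
        (finrank_span_le_card _).trans (by simp)
      have h4 := Submodule.finrank_sup_add_finrank_inf_eq (LinearMap.ker (hermLeft q b)) (LinearMap.ker (hermLeft q e))
      have h5 : ∀ y : Fin n → F, n ≤ finrank F (LinearMap.ker (hermLeft q y)) + 1 := fun y => by
        have h6 := LinearMap.finrank_range_add_finrank_ker (hermLeft (F := F) q y)
        have h7 := Submodule.finrank_le (LinearMap.range (hermLeft (F := F) q y))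
        simp only [finrank_fin_fun, finrank_self] at h6 h7
        omega
      have h8 := Submodule.finrank_le (LinearMap.ker (hermLeft q b) ⊔ LinearMap.ker (hermLeft q e))
      rw [finrank_fin_fun] at h8
      have := h3 b
      have := h3 e
      have := h5 b
      have := h5 e
      change finrank F ↥(LinearMap.ker (hermLeft q b) ⊓ LinearMap.ker (hermLeft q e)) ≤ _ at h1
      omega)
  simp only [S, Submodule.mem_inf, LinearMap.mem_ker, hermLeft_apply] at hfS
  exact ⟨f, hf, hfS.1, hfS.2, hfT⟩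

lemma mem_line_of_perp {a b : Fin n → F} (hb : InW F₀ P b) (hb0 : b ≠ 0)
    (h : ∀ e, InW F₀ P e → hermForm n F q e b = 0 → hermForm n F q e a = 0) : ∃ c : F, a = c • b := by
  obtain ⟨δ, hδ⟩ := exists_delta hF hS
  have key : ∀ x, hermForm n F q x b = 0 → hermForm n F q x a = 0 := by
    intro x hx
    obtain ⟨u, w, hu, hw, rfl, -⟩ := exists_decomp hF hS hδ x
    obtain ⟨h1, h2⟩ := comp_perp hF hS hδ hu hw hb hx
    rw [herm_add_left, herm_smul_left, h u hu h1, h w hw h2, mul_zero, add_zero]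
  obtain ⟨y, hy⟩ : ∃ y, hermForm n F q y b ≠ 0 := by
    by_contra hc
    push Not at hc
    exact hb0 (herm_nondeg hF b fun z => herm_eq_zero_comm hF (hc z))
  refine ⟨(hermForm n F q y a / hermForm n F q y b) ^ q,
    sub_eq_zero.1 (herm_nondeg hF _ fun x => herm_eq_zero_comm hF ?_)⟩
  have h1 := key (x - (hermForm n F q x b / hermForm n F q y b) • y) (by
    rw [herm_sub_left, herm_smul_left, div_mul_cancel₀ _ hy, sub_self])
  rw [herm_sub_left, herm_smul_left] at h1
  rw [herm_sub_right hF, herm_smul_right, pow_q_q hF]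
  field_simp at h1 ⊢
  linear_combination h1

variable (hskew : ζ + ζ ^ q = 0) (hiso : ∀ w, InW F₀ P w → hermForm n F q w w = 0)
include hskew

lemma tMat_skew_mem {M : Subgroup (GL (Fin n) F)} (hH : SubH q F₀ P ≤ M) {w : Fin n → F} (hw : InW F₀ P w)
    (hww : hermForm n F q w w = 0) {c : F} (hc : c + c ^ q = 0) : MIn M (tMat q w c) := by
  have := tMat_rat hF hS hskew hw hww (t := c / ζ) ((hS.fix _).2 (by
    rw [div_pow, show ζ ^ q = -ζ by linear_combination hskew, show c ^ q = -c by linear_combination hc,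
      neg_div_neg_eq]))
  rw [div_mul_cancel₀ _ hS.zne] at this
  exact this.mono hH

lemma herm_anti {a b : Fin n → F} (ha : InW F₀ P a) (hb : InW F₀ P b) :
    hermForm n F q b a = -hermForm n F q a b := by
  have h := herm_W_symm hF hS ha hb
  rw [show ζ ^ q = -ζ by linear_combination hskew] at h
  exact mul_left_cancel₀ hS.zne (by linear_combination -h)

lemma herm_norm_skew {a b : Fin n → F} (ha : InW F₀ P a) (hb : InW F₀ P b) (s : F) :
    hermForm n F q (s • a) (s • b) + hermForm n F q (s • a) (s • b) ^ q = 0 := by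
  have hsk : ∀ c : F, ζ * c ∈ F₀ → c + c ^ q = 0 := fun c hc => by
    have h := pow_q_of_mem hF hS hc
    rw [mul_pow, show ζ ^ q = -ζ by linear_combination hskew] at h
    exact mul_left_cancel₀ hS.zne (by linear_combination -h)
  rw [herm_smul_left, herm_smul_right, mul_pow, mul_pow, pow_q_q hF]
  linear_combination s * s ^ q * hsk _ (herm_rat hF hS ha hb)

include hiso

lemma iso_smul {a b : Fin n → F} (ha : InW F₀ P a) (h : hermForm n F q a b = 0) (s t : F) :
    hermForm n F q (s • a) (t • b) = 0 := by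
  rw [herm_smul_left, herm_smul_right, h, mul_zero, mul_zero]

variable {M : Subgroup (GL (Fin n) F)} (hH : SubH q F₀ P ≤ M)
include hH

section
variable {b e : Fin n → F} (hb : InW F₀ P b) (he : InW F₀ P e) (hbe : hermForm n F q b e = 0)
include hb he hbe

lemma RootIn.add_scalar {s t : F} (h : RootIn q M b e s) (h' : RootIn q M b e t) : RootIn q M b e (s + t) := by
  have := h.mul h'
  rwa [rMat_mul hF (hiso b hb) (by rw [herm_smul_right, hbe, mul_zero]) (by rw [herm_smul_right, hbe, mul_zero])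
    (iso_smul hF hS hskew hiso he (hiso e he) t s), ← add_smul] at this

lemma RootIn.neg {s : F} (h : RootIn q M b e s) : RootIn q M b e (-s) :=
  h.of_mul_eq_one (by
    rw [rMat_mul hF (hiso b hb) (by rw [herm_smul_right, hbe, mul_zero]) (by rw [herm_smul_right, hbe, mul_zero])
      (iso_smul hF hS hskew hiso he (hiso e he) (-s) s), ← add_smul, add_neg_cancel, zero_smul,
      rMat_zero_right hF (hiso b hb)])

lemma RootIn.swap {s : F} (h : RootIn q M b e s) : RootIn q M e b (s ^ q) := by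
  have h1 : MIn M (rMat q (s • e) b) := h.of_mul_eq_one (rMat_neg_mul hF (hiso b hb)
    (iso_smul hF hS hskew hiso he (hiso e he) s s) (by rw [herm_smul_right, hbe, mul_zero]))
  rwa [rMat_smul_left hF (hiso e he)] at h1

lemma rootIn_rat {t : F} (ht : t ∈ F₀) : RootIn q M b e (t * ζ) :=
  (rMat_rat hF hS hb he (hiso b hb) (hiso e he) hbe ht).mono hH

lemma RootIn.add_vec {e' : Fin n → F} (he' : InW F₀ P e') (hbe' : hermForm n F q b e' = 0) {s : F}
    (h : RootIn q M b e s) (h' : RootIn q M b e' s) : RootIn q M b (e + e') s := by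
  have h1 := (h.mul h')
  rw [rMat_mul_gen hF (hiso b hb) (by rw [herm_smul_right, hbe, mul_zero]) (by rw [herm_smul_right, hbe', mul_zero]),
    ← smul_add] at h1
  have hc := herm_norm_skew hF hS hskew he' he s
  have h2 := h1.mul (tMat_skew_mem hF hS hskew hH hb (hiso b hb) hc)
  rwa [mul_assoc, tMat_cancel hF (hiso b hb), mul_one] at h2

lemma RootIn.spread {s : F} (hM : M ≤ SUGL n F q) (h : RootIn q M b e s) {f : Fin n → F} (hf : InW F₀ P f)
    (hbf : hermForm n F q b f = 0) (hef : hermForm n F q e f ≠ 0) {μ : F} (hμ : μ ∈ F₀) :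
    RootIn q M b f (s * μ) := by
  set k := μ / (ζ * hermForm n F q e f) with hk
  have hkμ : k * ζ * hermForm n F q e f = μ := by
    rw [mul_assoc, hk, div_mul_cancel₀ _ (mul_ne_zero hS.zne hef)]
  have hkF : k ∈ F₀ := F₀.div_mem hμ (herm_rat hF hS he hf)
  obtain ⟨g, hg, eg⟩ := (tMat_rat hF hS hskew hf (hiso f hf) hkF).mono hH
  obtain ⟨r, hr, er⟩ := h
  have hgf : ∀ x y, hermForm n F q ((g : Matrix (Fin n) (Fin n) F) *ᵥ x) ((g : Matrix (Fin n) (Fin n) F) *ᵥ y) =
      hermForm n F q x y := (hM hg).1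
  have h1 : MIn M (rMat q b (s • (e + μ • f))) := by
    refine ⟨g * r * g⁻¹, M.mul_mem (M.mul_mem hg hr) (M.inv_mem hg), ?_⟩
    rw [Units.val_mul, Units.val_mul, er, conj_rMat hF hgf _ (hiso b hb), Matrix.mulVec_smul, eg, tMat_mulVec,
      tMat_mulVec, hbf, mul_zero, zero_smul, add_zero, hkμ]
  have hμf : InW F₀ P (μ • f) := hf.smul hμ
  have hbsum : hermForm n F q b (e + μ • f) = 0 := by
    rw [herm_add_right hF, herm_smul_right, hbe, hbf, mul_zero, add_zero]
  have h2 := RootIn.add_vec hF hS hskew hiso hH hb (he.add hμf) hbsum (inW_zero.sub he)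
    (by rw [herm_sub_right hF, herm_zero_right hF, hbe, sub_zero]) (s := s) h1 (by
      have h3 := RootIn.neg hF hS hskew hiso hH hb he hbe ⟨r, hr, er⟩
      unfold RootIn at h3 ⊢
      rwa [zero_sub, smul_neg, ← neg_smul])
  unfold RootIn at h2 ⊢
  rwa [show e + μ • f + (0 - e) = μ • f by abel, smul_smul] at h2

end

/-- All root elements at `b` with rational partner and arbitrary scalar. -/
def FullRoot (q : ℕ) (F₀ : Subfield F) (P : GL (Fin n) F) (M : Subgroup (GL (Fin n) F)) (b : Fin n → F) : Prop :=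
  ∀ e, InW F₀ P e → hermForm n F q b e = 0 → ∀ l, RootIn q M b e l

variable (hM : M ≤ SUGL n F q)
include hM

lemma fullRoot_of_irrational {b a : Fin n → F} (hb : InW F₀ P b) (hb0 : b ≠ 0) (ha : InW F₀ P a)
    (hba : hermForm n F q b a = 0) (hind : a ∉ Submodule.span F {b}) {δ : F} (hδ : δ ∉ F₀)
    (h : RootIn q M b a (ζ * δ)) : FullRoot q F₀ P M b := by
  obtain ⟨f, hf, hfb, hfa⟩ : ∃ f, InW F₀ P f ∧ hermForm n F q f b = 0 ∧ hermForm n F q f a ≠ 0 := by
    by_contra hc
    push Not at hc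
    obtain ⟨c, hcab⟩ := mem_line_of_perp hF hS hb hb0 hc
    exact hind (Submodule.mem_span_singleton.2 ⟨c, hcab.symm⟩)
  have hbf := herm_eq_zero_comm hF hfb
  have haf : hermForm n F q a f ≠ 0 := fun h0 => hfa (herm_eq_zero_comm hF h0)
  intro e he hbe l
  have key : ∀ μ ∈ F₀, RootIn q M b e (ζ * δ * μ) := by
    intro μ hμ
    by_cases hae : hermForm n F q a e = 0
    · have h1 := RootIn.spread hF hS hskew hiso hH hb ha hba hM h (he.add hf)
        (by rw [herm_add_right hF, hbe, hbf, add_zero])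
        (by rwa [herm_add_right hF, hae, zero_add]) hμ
      have h2 := RootIn.neg hF hS hskew hiso hH hb hf hbf
        (RootIn.spread hF hS hskew hiso hH hb ha hba hM h hf hbf haf hμ)
      have h3 := RootIn.add_vec hF hS hskew hiso hH hb (he.add hf) (by rw [herm_add_right hF, hbe, hbf, add_zero])
        (inW_zero.sub hf) (by rw [herm_sub_right hF, herm_zero_right hF, hbf, sub_zero]) h1 (by
          unfold RootIn at h2 ⊢
          rwa [zero_sub, smul_neg, ← neg_smul])
      rwa [show e + f + (0 - f) = e by abel] at h3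
    · exact RootIn.spread hF hS hskew hiso hH hb ha hba hM h he hbe hae hμ
  obtain ⟨x, hx, y, hy, hl⟩ := exists_scalar_decomp hF hS hδ (l / ζ)
  have := RootIn.add_scalar hF hS hskew hiso hH hb he hbe (rootIn_rat hF hS hskew hiso hH hb he hbe hx) (key y hy)
  rwa [show x * ζ + ζ * δ * y = l by
    rw [show x * ζ + ζ * δ * y = (x + δ * y) * ζ by ring, ← hl, div_mul_cancel₀ _ hS.zne]] at this

lemma fullRoot_swap {b e : Fin n → F} (hb : InW F₀ P b) (he : InW F₀ P e) (hb0 : b ≠ 0)
    (hbe : hermForm n F q b e = 0) (hind : e ∉ Submodule.span F {b}) (h : FullRoot q F₀ P M b) :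
    FullRoot q F₀ P M e := by
  obtain ⟨δ, hδ⟩ := exists_delta hF hS
  have he0 : e ≠ 0 := fun h0 => hind (h0 ▸ zero_mem _)
  refine fullRoot_of_irrational hF hS hskew hiso hH hM he he0 hb (herm_eq_zero_comm hF hbe) ?_ hδ ?_
  · intro hm
    obtain ⟨c, hc⟩ := Submodule.mem_span_singleton.1 hm
    refine hind (Submodule.mem_span_singleton.2 ⟨c⁻¹, ?_⟩)
    rw [← hc, smul_smul, inv_mul_cancel₀ (fun h0 => hb0 (by rw [← hc, h0, zero_smul])), one_smul]
  · have := RootIn.swap hF hS hskew hiso hH hb he hbe (h e he hbe ((ζ * δ) ^ q))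
    rwa [pow_q_q hF] at this

lemma fullRoot_all (hn : 5 ≤ n) {b : Fin n → F} (hb : InW F₀ P b) (hb0 : b ≠ 0) (h : FullRoot q F₀ P M b) :
    ∀ e, InW F₀ P e → e ≠ 0 → FullRoot q F₀ P M e := by
  intro e he he0
  obtain ⟨f, hf, hfb, hfe, hfN⟩ := exists_perp_pair_avoid hF hS hn hb he
  have h1 := fullRoot_swap hF hS hskew hiso hH hM hb hf hb0 (herm_eq_zero_comm hF hfb)
    (fun hm => hfN (Submodule.mem_sup_left hm)) h
  refine fullRoot_swap hF hS hskew hiso hH hM hf he (fun h0 => hfN (h0 ▸ zero_mem _)) hfe (fun hm => ?_) h1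
  obtain ⟨c, hc⟩ := Submodule.mem_span_singleton.1 hm
  refine hfN (Submodule.mem_sup_right (Submodule.mem_span_singleton.2 ⟨c⁻¹, ?_⟩))
  rw [← hc, smul_smul, inv_mul_cancel₀ (fun h0 => he0 (by rw [← hc, h0, zero_smul])), one_smul]

lemma le_of_fullRoot (hn : 5 ≤ n) {b : Fin n → F} (hb : InW F₀ P b) (hb0 : b ≠ 0) (h : FullRoot q F₀ P M b) :
    SUGL n F q ≤ M := by
  refine le_of_tMat_mem hF (by omega) fun v c hv hc => ?_
  obtain ⟨δ, hδ⟩ := exists_delta hF hS
  obtain ⟨a, a', ha, ha', rfl, -⟩ := exists_decomp hF hS hδ v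
  have hd : δ ^ q - δ ≠ 0 := fun h => hδ ((hS.fix δ).2 (sub_eq_zero.1 h))
  have haa' : hermForm n F q a a' = 0 := by
    have h1 := hv
    simp only [herm_add_left, herm_add_right hF, herm_smul_left, herm_smul_right, hiso a ha, hiso a' ha',
      herm_anti hF hS hskew ha ha'] at h1
    exact (mul_eq_zero.1 (show (δ ^ q - δ) * hermForm n F q a a' = 0 by linear_combination h1)).resolve_left hd
  rw [tMat_split hF (hiso a ha) (hiso a' ha') haa' δ hc]
  refine ((tMat_skew_mem hF hS hskew hH ha (hiso a ha) hc).mul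
    (tMat_skew_mem hF hS hskew hH ha' (hiso a' ha') ?_)).mul ?_
  · rw [mul_pow, norm_pow_q hF, ← add_mul, hc, zero_mul]
  · by_cases ha0 : a = 0
    · rw [ha0, rMat_zero_left hF]
      exact ⟨1, M.one_mem, rfl⟩
    · exact fullRoot_all hF hS hskew hiso hH hM hn hb hb0 h a ha ha0 a' ha' haa' (c * δ)

omit hM hH
/-- The symplectic subfield group is maximal in the special unitary group. -/
theorem sympSubfield_isMaximal (hn : 5 ≤ n) : Cfsg.Geo.IsMaximalIn (SUGL n F q) (SubH q F₀ P) := by
  obtain ⟨δ, hδ⟩ := exists_delta hF hS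
  have hd : δ ^ q - δ ≠ 0 := fun h => hδ ((hS.fix δ).2 (sub_eq_zero.1 h))
  refine ⟨lt_of_le_of_ne inf_le_right fun heq => ?_, fun M hle hM => ?_⟩
  · obtain ⟨a, ha, ha0⟩ : ∃ a, InW F₀ P a ∧ a ≠ 0 := by
      obtain ⟨a, ha, -, -, haN⟩ := exists_perp_pair_avoid hF hS hn (b := 0) (e := 0) inW_zero inW_zero
      exact ⟨a, ha, fun h0 => haN (by rw [h0]; exact zero_mem _)⟩
    obtain ⟨b, hb, hba, -, hbN⟩ := exists_perp_pair_avoid hF hS hn ha ha
    rw [sup_idem] at hbN
    have hab := herm_eq_zero_comm hF hba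
    have hv : hermForm n F q (a + δ • b) (a + δ • b) = 0 := by
      simp [herm_add_left, herm_add_right hF, herm_smul_left, herm_smul_right, hiso a ha, hiso b hb, hab, hba]
    obtain ⟨s, u, hu, e⟩ := line_of_tMat_mem hF hS hS.zne ha ha0
      (v := a + δ • b) (by rw [herm_add_right hF, herm_smul_right, hiso a ha, hab, mul_zero, add_zero]) (by
        obtain ⟨g, hg, eg⟩ := exists_tMat_mem hF hv hskew
        have hg' : g ∈ SUGL n F q := hg
        rw [← heq] at hg'
        exact ⟨g, hg'.1, eg⟩)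
    have h1 := congrArg (sigma q P) e
    rw [sigma_add hF, sigma_smul hF, ha.sigma_eq hF hS, hb.sigma_eq hF hS, sigma_of_line hF hS hu] at h1
    have h2 : (s - s ^ q) • a + (s * δ ^ q - s ^ q * δ) • b = 0 := by
      linear_combination (norm := module) s • h1 - s ^ q • e
    by_cases hs : s - s ^ q = 0
    · rw [hs, zero_smul, zero_add, smul_eq_zero] at h2
      rcases h2 with h2 | h2
      · rw [← sub_eq_zero.1 hs, ← mul_sub, mul_eq_zero] at h2
        rcases h2 with h2 | h2
        · rw [h2, zero_smul] at e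
          refine ha0 ?_
          by_contra h0
          refine hbN (Submodule.mem_span_singleton.2 ⟨-δ⁻¹, ?_⟩)
          have hd0 : δ ≠ 0 := fun h => hδ (h ▸ F₀.zero_mem)
          rw [eq_neg_of_add_eq_zero_left e, smul_neg, smul_smul, neg_mul, inv_mul_cancel₀ hd0, neg_smul, neg_neg,
            one_smul]
        · exact hd h2
      · exact hbN (h2 ▸ zero_mem _)
    · have h3 : (s * δ ^ q - s ^ q * δ) ≠ 0 := fun h0 => by
        rw [h0, zero_smul, add_zero, smul_eq_zero] at h2
        exact ha0 (h2.resolve_left hs)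
      refine hbN (Submodule.mem_span_singleton.2 ⟨-(s - s ^ q) / (s * δ ^ q - s ^ q * δ), ?_⟩)
      rw [neg_div, neg_smul, div_eq_inv_mul, mul_smul, eq_neg_of_add_eq_zero_left h2, smul_neg, neg_neg,
        smul_smul, inv_mul_cancel₀ h3, one_smul]
  by_cases hMH : M ≤ SubH q F₀ P
  · exact Or.inl (le_antisymm hMH hle)
  refine Or.inr (le_antisymm hM ?_)
  obtain ⟨g, hgM, hgH⟩ := SetLike.not_le_iff_exists.1 hMH
  obtain ⟨v, hv, hvl⟩ : ∃ v, InW F₀ P v ∧ ∀ (s : F) (w : Fin n → F), InW F₀ P w →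
      (g : Matrix (Fin n) (Fin n) F) *ᵥ v ≠ s • w := by
    by_contra hc
    push Not at hc
    exact hgH ⟨mem_subfield_of_lines hc, hM hgM⟩
  have hgf : ∀ x y, hermForm n F q ((g : Matrix (Fin n) (Fin n) F) *ᵥ x) ((g : Matrix (Fin n) (Fin n) F) *ᵥ y) =
      hermForm n F q x y := (hM hgM).1
  obtain ⟨a, b, ha, hb, e, -⟩ := exists_decomp hF hS hδ ((g : Matrix (Fin n) (Fin n) F) *ᵥ v)
  have hab : hermForm n F q a b = 0 := by
    have h1 := (hgf v v).trans (hiso v hv)
    rw [e] at h1
    simp only [herm_add_left, herm_add_right hF, herm_smul_left, herm_smul_right, hiso a ha, hiso b hb,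
      herm_anti hF hS hskew ha hb] at h1
    exact (mul_eq_zero.1 (show (δ ^ q - δ) * hermForm n F q a b = 0 by linear_combination h1)).resolve_left hd
  have ha0 : a ≠ 0 := fun h0 => hvl δ b hb (by rw [e, h0, zero_add])
  have hind : b ∉ Submodule.span F {a} := fun hm => by
    obtain ⟨c, hc⟩ := Submodule.mem_span_singleton.1 hm
    exact hvl (1 + δ * c) a ha (by rw [e, ← hc, smul_smul, add_smul, one_smul])
  have ht : MIn M (tMat q (a + δ • b) ζ) := by
    obtain ⟨t, ht, et⟩ := tMat_skew_mem hF hS hskew hle hv (hiso v hv) hskew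
    refine ⟨g * t * g⁻¹, M.mul_mem (M.mul_mem hgM ht) (M.inv_mem hgM), ?_⟩
    rw [Units.val_mul, Units.val_mul, et, conj_tMat hF hgf, e]
  have hr : RootIn q M a b (ζ * δ) := rMat_of_split hF (hiso a ha) (hiso b hb) hab δ hskew
    (tMat_skew_mem hF hS hskew hle ha (hiso a ha) (by rw [neg_pow_q hF, ← neg_add, hskew, neg_zero]))
    (tMat_skew_mem hF hS hskew hle hb (hiso b hb) (by
      rw [neg_pow_q hF, mul_pow, norm_pow_q hF, ← neg_add, ← add_mul, hskew, zero_mul, neg_zero])) ht
  exact le_of_fullRoot hF hS hskew hiso hle hM hn ha ha0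
    (fullRoot_of_irrational hF hS hskew hiso hle hM ha ha0 hb hab hind hδ hr)

end CfsgLib.UnitGeo
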