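import Cfsg.Agent.UnitGeo.RootPairs
import Cfsg.Agent.Subfield54.Basic

/-! Subfield structures of a Hermitian space: the rational vectors, the semilinear involution fixing them, and
the root elements of the subfield group. -/

set_option autoImplicit false
set_option linter.unusedSectionVars false

namespace CfsgLib.UnitGeo

open Cfsg Module CfsgLib.Unitary CfsgLib.Subfield54
open scoped Matrix MatrixGroups

variable {F : Type*} [Field F] {n q : ℕ} {F₀ : Subfield F} {ζ : F} {P : GL (Fin n) F}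

/-- The vector lies in the `F₀`-span of the columns of `P`. -/
def InW (F₀ : Subfield F) (P : GL (Fin n) F) (v : Fin n → F) : Prop :=
  Rat F₀ (((P⁻¹ : GL (Fin n) F) : Matrix (Fin n) (Fin n) F) *ᵥ v)

/-- The semilinear map fixing the columns of `P`. -/
def sigma (q : ℕ) (P : GL (Fin n) F) (v : Fin n → F) : Fin n → F :=
  (P : Matrix (Fin n) (Fin n) F) *ᵥ fun i => (((P⁻¹ : GL (Fin n) F) : Matrix (Fin n) (Fin n) F) *ᵥ v) i ^ q

/-- A rational structure with values in the fixed field after scaling by `ζ`, `ζ ^ q = ± ζ`. -/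
structure RStr (q : ℕ) (F₀ : Subfield F) (ζ : F) (P : GL (Fin n) F) : Prop where
  fix : ∀ x : F, x ∈ F₀ ↔ x ^ q = x
  rat : Cfsg.Geo.IsFormRationalStructure (hermForm n F q) F₀ ζ P
  zne : ζ ≠ 0
  sign : ζ ^ q = ζ ∨ ζ ^ q = -ζ

lemma mulVec_P_inv (P : GL (Fin n) F) (v : Fin n → F) :
    (P : Matrix (Fin n) (Fin n) F) *ᵥ (((P⁻¹ : GL (Fin n) F) : Matrix (Fin n) (Fin n) F) *ᵥ v) = v := by
  rw [Matrix.mulVec_mulVec, Units.mul_inv, Matrix.one_mulVec]

lemma mulVec_inv_P (P : GL (Fin n) F) (v : Fin n → F) :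
    ((P⁻¹ : GL (Fin n) F) : Matrix (Fin n) (Fin n) F) *ᵥ ((P : Matrix (Fin n) (Fin n) F) *ᵥ v) = v := by
  rw [Matrix.mulVec_mulVec, Units.inv_mul, Matrix.one_mulVec]

lemma InW.add {v w : Fin n → F} (hv : InW F₀ P v) (hw : InW F₀ P w) : InW F₀ P (v + w) := by
  rw [InW, Matrix.mulVec_add]; exact CfsgLib.Subfield54.Rat.add hv hw

lemma InW.sub {v w : Fin n → F} (hv : InW F₀ P v) (hw : InW F₀ P w) : InW F₀ P (v - w) := by
  rw [InW, Matrix.mulVec_sub]; exact CfsgLib.Subfield54.Rat.sub hv hw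

lemma inW_zero : InW F₀ P 0 := by
  rw [InW, Matrix.mulVec_zero]; exact fun _ => F₀.zero_mem

lemma InW.smul {v : Fin n → F} {c : F} (hc : c ∈ F₀) (hv : InW F₀ P v) : InW F₀ P (c • v) := by
  rw [InW, Matrix.mulVec_smul]; exact CfsgLib.Subfield54.Rat.smul hc hv

lemma inW_col {u : Fin n → F} (hu : Rat F₀ u) : InW F₀ P ((P : Matrix (Fin n) (Fin n) F) *ᵥ u) := by
  rw [InW, mulVec_inv_P]; exact hu

lemma InW.scalar_mem {v w : Fin n → F} {s : F} (hv : InW F₀ P v) (hw : InW F₀ P w) (h : v = s • w)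
    (hw0 : w ≠ 0) : s ∈ F₀ := by
  obtain ⟨i, hi⟩ : ∃ i, (((P⁻¹ : GL (Fin n) F) : Matrix (Fin n) (Fin n) F) *ᵥ w) i ≠ 0 := by
    refine exists_coord_ne fun h0 => hw0 ?_
    rw [← mulVec_P_inv P w, h0, Matrix.mulVec_zero]
  have h1 := congrFun (congrArg (((P⁻¹ : GL (Fin n) F) : Matrix (Fin n) (Fin n) F) *ᵥ ·) h) i
  simp only [Matrix.mulVec_smul, Pi.smul_apply, smul_eq_mul] at h1
  rw [← mul_div_cancel_right₀ s hi, ← h1]
  exact F₀.div_mem (hv i) (hw i)

variable [Fintype F] (hF : Fintype.card F = q ^ 2)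
include hF

lemma fix_of_card (hcard : Fintype.card F = Nat.card F₀ ^ 2) (x : F) : x ∈ F₀ ↔ x ^ q = x := by
  classical
  have hc : Nat.card F₀ = q := Nat.pow_left_injective two_ne_zero (hcard.symm.trans hF)
  have hsub : ∀ x ∈ F₀, x ^ q = x := fun x hx => by
    have : Fintype F₀ := Fintype.ofFinite _
    have h := FiniteField.pow_card (⟨x, hx⟩ : F₀)
    rw [← Nat.card_eq_fintype_card, hc] at h
    simpa using congrArg Subtype.val h
  refine ⟨hsub x, fun hx => ?_⟩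
  have hset : (F₀ : Set F) = {x : F | x ^ q = x} := by
    refine Set.eq_of_subset_of_ncard_le (fun x hx => hsub x hx) ?_ (Set.toFinite _)
    rw [← Nat.card_coe_set_eq, ← Nat.card_coe_set_eq]
    exact ((card_fixed hF).trans hc.symm).le
  show x ∈ (F₀ : Set F)
  rw [hset]; exact hx

lemma sigma_add (v w : Fin n → F) : sigma q P (v + w) = sigma q P v + sigma q P w := by
  rw [sigma, sigma, sigma, ← Matrix.mulVec_add, Matrix.mulVec_add (((P⁻¹ : GL (Fin n) F) : Matrix (Fin n) (Fin n) F))]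
  congr 1
  funext i
  simp [add_pow_q hF]

lemma sigma_smul (c : F) (v : Fin n → F) : sigma q P (c • v) = c ^ q • sigma q P v := by
  rw [sigma, sigma, ← Matrix.mulVec_smul, Matrix.mulVec_smul (((P⁻¹ : GL (Fin n) F) : Matrix (Fin n) (Fin n) F))]
  congr 1
  funext i
  simp [mul_pow]

variable (hS : RStr q F₀ ζ P)
include hS

lemma pow_q_of_mem {x : F} (hx : x ∈ F₀) : x ^ q = x := (hS.fix x).1 hx

lemma inW_iff_sigma {v : Fin n → F} : InW F₀ P v ↔ sigma q P v = v := by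
  constructor
  · intro h
    rw [sigma]
    conv_rhs => rw [← mulVec_P_inv P v]
    congr 1
    funext i
    exact pow_q_of_mem hF hS (h i)
  · intro h i
    have h1 := congrFun (congrArg (((P⁻¹ : GL (Fin n) F) : Matrix (Fin n) (Fin n) F) *ᵥ ·) h) i
    simp only [sigma, mulVec_inv_P] at h1
    exact (hS.fix _).2 h1

lemma InW.sigma_eq {v : Fin n → F} (h : InW F₀ P v) : sigma q P v = v := (inW_iff_sigma hF hS).1 h

lemma exists_delta : ∃ δ : F, δ ∉ F₀ :=
  let ⟨l, hl⟩ := exists_ne_pow_q hF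
  ⟨l, fun h => hl ((hS.fix l).1 h)⟩

lemma exists_decomp {δ : F} (hδ : δ ∉ F₀) (v : Fin n → F) :
    ∃ a b, InW F₀ P a ∧ InW F₀ P b ∧ v = a + δ • b ∧ sigma q P v = a + δ ^ q • b := by
  have hd : δ - δ ^ q ≠ 0 := fun h => hδ ((hS.fix δ).2 (sub_eq_zero.1 h).symm)
  set u := ((P⁻¹ : GL (Fin n) F) : Matrix (Fin n) (Fin n) F) *ᵥ v with hu
  set b : Fin n → F := fun i => (u i - u i ^ q) / (δ - δ ^ q) with hb
  have hbR : Rat F₀ b := fun i => (hS.fix _).2 (by
    rw [hb]; simp only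
    rw [div_pow, sub_pow_q hF, sub_pow_q hF, pow_q_q hF, pow_q_q hF, div_eq_div_iff
      (fun h => hd (by linear_combination -h)) hd]
    ring)
  have haR : Rat F₀ (u - δ • b) := fun i => (hS.fix _).2 (by
    simp only [Pi.sub_apply, Pi.smul_apply, smul_eq_mul]
    rw [sub_pow_q hF, mul_pow, pow_q_of_mem hF hS (hbR i)]
    rw [hb]
    simp only
    field_simp
    ring)
  have hv : v = (P : Matrix (Fin n) (Fin n) F) *ᵥ (u - δ • b) + δ • (P : Matrix (Fin n) (Fin n) F) *ᵥ b := by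
    rw [← Matrix.mulVec_smul, ← Matrix.mulVec_add, sub_add_cancel, hu, mulVec_P_inv]
  refine ⟨_, _, inW_col haR, inW_col hbR, hv, ?_⟩
  conv_lhs => rw [hv]
  rw [sigma_add hF, sigma_smul hF, (inW_col haR).sigma_eq hF hS, (inW_col hbR).sigma_eq hF hS]

lemma herm_rat {a b : Fin n → F} (ha : InW F₀ P a) (hb : InW F₀ P b) : ζ * hermForm n F q a b ∈ F₀ := by
  have h := hS.rat _ _ ha hb
  rwa [mulVec_P_inv, mulVec_P_inv] at h

lemma split_eq_zero {δ A B : F} (hδ : δ ∉ F₀) (hA : A ∈ F₀) (hB : B ∈ F₀) (h : A + δ * B = 0) :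
    A = 0 ∧ B = 0 := by
  have hB0 : B = 0 := by
    by_contra hB0
    refine hδ ?_
    rw [show δ = -A / B by rw [eq_div_iff hB0]; linear_combination h]
    exact F₀.div_mem (F₀.neg_mem hA) hB
  exact ⟨by rw [hB0, mul_zero, add_zero] at h; exact h, hB0⟩

lemma comp_perp {δ : F} (hδ : δ ∉ F₀) {a b c : Fin n → F} (ha : InW F₀ P a) (hb : InW F₀ P b) (hc : InW F₀ P c)
    (h : hermForm n F q (a + δ • b) c = 0) : hermForm n F q a c = 0 ∧ hermForm n F q b c = 0 := by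
  rw [herm_add_left, herm_smul_left] at h
  obtain ⟨h1, h2⟩ := split_eq_zero hF hS hδ (herm_rat hF hS ha hc) (herm_rat hF hS hb hc)
    (by linear_combination ζ * h)
  exact ⟨(mul_eq_zero.1 h1).resolve_left hS.zne, (mul_eq_zero.1 h2).resolve_left hS.zne⟩

lemma eq_zero_of_W {x : Fin n → F} (h : ∀ w, InW F₀ P w → hermForm n F q x w = 0) : x = 0 := by
  obtain ⟨δ, hδ⟩ := exists_delta hF hS
  refine herm_nondeg hF x fun v => ?_
  obtain ⟨a, b, ha, hb, rfl, -⟩ := exists_decomp hF hS hδ v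
  rw [herm_add_right hF, herm_smul_right, h a ha, h b hb, mul_zero, add_zero]

lemma herm_sigma (x y : Fin n → F) :
    (ζ * hermForm n F q x y) ^ q = ζ * hermForm n F q (sigma q P x) (sigma q P y) := by
  obtain ⟨δ, hδ⟩ := exists_delta hF hS
  obtain ⟨a, b, ha, hb, rfl, hsx⟩ := exists_decomp hF hS hδ x
  obtain ⟨c, d, hc, hd, rfl, hsy⟩ := exists_decomp hF hS hδ y
  have h1 := pow_q_of_mem hF hS (herm_rat hF hS ha hc)
  have h2 := pow_q_of_mem hF hS (herm_rat hF hS ha hd)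
  have h3 := pow_q_of_mem hF hS (herm_rat hF hS hb hc)
  have h4 := pow_q_of_mem hF hS (herm_rat hF hS hb hd)
  rw [hsx, hsy]
  simp only [herm_add_left, herm_add_right hF, herm_smul_left, herm_smul_right, pow_q_q hF]
  simp only [add_pow_q hF, mul_pow, pow_q_q hF, mul_add] at h1 h2 h3 h4 ⊢
  linear_combination h1 + δ * h2 + δ ^ q * h3 + δ * δ ^ q * h4

lemma herm_W_symm {a b : Fin n → F} (ha : InW F₀ P a) (hb : InW F₀ P b) :
    ζ ^ q * hermForm n F q b a = ζ * hermForm n F q a b := by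
  rw [herm_conj hF a b, ← mul_pow, pow_q_of_mem hF hS (herm_rat hF hS ha hb)]

lemma line_of_sigma {v : Fin n → F} {t : F} (h : sigma q P v = t • v) :
    ∃ (s : F) (w : Fin n → F), InW F₀ P w ∧ v = s • w := by
  obtain ⟨δ, hδ⟩ := exists_delta hF hS
  obtain ⟨a, b, ha, hb, hv, hsv⟩ := exists_decomp hF hS hδ v
  have hd : δ - δ ^ q ≠ 0 := fun h => hδ ((hS.fix δ).2 (sub_eq_zero.1 h).symm)
  rw [hsv, hv] at h
  by_cases ht : t = 1
  · subst ht
    have : (δ - δ ^ q) • b = 0 := by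
      rw [one_smul] at h
      rw [sub_smul, sub_eq_zero]
      exact (add_left_cancel h).symm
    rw [smul_eq_zero] at this
    exact ⟨1, a, ha, by rw [hv, this.resolve_left hd, smul_zero, add_zero, one_smul]⟩
  · have e : a = ((t * δ - δ ^ q) / (1 - t)) • b := by
      have ht' : (1 - t) ≠ 0 := sub_ne_zero.2 (Ne.symm ht)
      have h' : (1 - t) • a = (t * δ - δ ^ q) • b := by
        rw [smul_add, smul_smul] at h
        rw [sub_smul, sub_smul, one_smul]
        linear_combination (norm := module) h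
      calc a = (1 - t)⁻¹ • ((1 - t) • a) := by rw [smul_smul, inv_mul_cancel₀ ht', one_smul]
        _ = _ := by rw [h', smul_smul, div_eq_inv_mul]
    refine ⟨(t * δ - δ ^ q) / (1 - t) + δ, b, hb, ?_⟩
    rw [hv, e, add_smul]

lemma sigma_of_line {s : F} {w : Fin n → F} (hw : InW F₀ P w) : sigma q P (s • w) = s ^ q • w := by
  rw [sigma_smul hF, hw.sigma_eq hF hS]

omit hF hS in
lemma mem_subfield_of_lines {g : GL (Fin n) F}
    (h : ∀ v, InW F₀ P v → ∃ (s : F) (w : Fin n → F), InW F₀ P w ∧ (g : Matrix (Fin n) (Fin n) F) *ᵥ v = s • w) :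
    g ∈ Cfsg.Geo.subfieldSubgroup F₀ P := by
  have h1 : P⁻¹ * g * P ∈ Cfsg.Geo.subfieldSubgroup F₀ (1 : GL (Fin n) F) := by
    refine mem_subfield_of_ratLine fun u hu => ?_
    obtain ⟨s, w, hw, e⟩ := h _ (inW_col (P := P) hu)
    refine ⟨s, _, hw, ?_⟩
    rw [Units.val_mul, Units.val_mul, ← Matrix.mulVec_mulVec, ← Matrix.mulVec_mulVec, e, Matrix.mulVec_smul]
  rw [CfsgLib.Aschbacher.mem_subfieldSubgroup_iff] at h1 ⊢
  simpa using h1

omit hF hS in
lemma scalar_of_mem_subfield {g : GL (Fin n) F} (hg : g ∈ Cfsg.Geo.subfieldSubgroup F₀ P) :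
    ∃ s : F, s ≠ 0 ∧
      ∀ v, InW F₀ P v → ∃ w, InW F₀ P w ∧ (g : Matrix (Fin n) (Fin n) F) *ᵥ v = s • w := by
  obtain ⟨S, c, e⟩ := CfsgLib.Aschbacher.mem_subfieldSubgroup_iff.1 hg
  refine ⟨c, c.ne_zero, fun v hv => ?_⟩
  have e' : g = P * (Matrix.GeneralLinearGroup.map (F₀.subtype : F₀ →+* F) S *
      Units.map (Matrix.scalar (Fin n) : F →+* Matrix (Fin n) (Fin n) F).toMonoidHom c) * P⁻¹ := by
    rw [← e]; group
  set u := ((P⁻¹ : GL (Fin n) F) : Matrix (Fin n) (Fin n) F) *ᵥ v with hu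
  refine ⟨(P : Matrix (Fin n) (Fin n) F) *ᵥ ((Matrix.GeneralLinearGroup.map (F₀.subtype : F₀ →+* F) S :
      Matrix (Fin n) (Fin n) F) *ᵥ u), inW_col fun i => ?_, ?_⟩
  · show (∑ j, ((S.val i j : F₀) : F) * u j) ∈ F₀
    exact Subfield.sum_mem _ fun j _ => F₀.mul_mem (SetLike.coe_mem (S.val i j)) (hv j)
  · rw [e', Units.val_mul, Units.val_mul, Units.val_mul, ← Matrix.mulVec_mulVec, ← Matrix.mulVec_mulVec,
      ← Matrix.mulVec_mulVec, ← hu]
    simp only [Units.coe_map, RingHom.toMonoidHom_eq_coe, MonoidHom.coe_coe]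
    rw [Matrix.scalar_apply, show (Matrix.diagonal fun _ => (c : F)) *ᵥ u = (c : F) • u from
      funext fun i => by simp [Matrix.mulVec_diagonal], Matrix.mulVec_smul, Matrix.mulVec_smul]

/-- The special unitary group inside `GL`. -/
abbrev SUGL (n : ℕ) (F : Type*) [Field F] (q : ℕ) : Subgroup (GL (Fin n) F) :=
  Cfsg.GU n F q ⊓ Cfsg.Geo.specialLinear (Fin n) F

/-- The subfield group in the special unitary group. -/
abbrev SubH (q : ℕ) (F₀ : Subfield F) (P : GL (Fin n) F) : Subgroup (GL (Fin n) F) :=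
  Cfsg.Geo.subfieldSubgroup F₀ P ⊓ SUGL n F q

omit hF hS in
lemma mem_subH_of_preserves {g : GL (Fin n) F} (hg : g ∈ SUGL n F q)
    (h : ∀ v, InW F₀ P v → InW F₀ P ((g : Matrix (Fin n) (Fin n) F) *ᵥ v)) : g ∈ SubH q F₀ P :=
  ⟨mem_subfield_of_lines fun v hv => ⟨1, _, h v hv, (one_smul F _).symm⟩, hg⟩

omit hF hS in
lemma mIn_subH {A : Matrix (Fin n) (Fin n) F} (hA : MIn (SUGL n F q) A)
    (h : ∀ v, InW F₀ P v → InW F₀ P (A *ᵥ v)) : MIn (SubH q F₀ P) A := by
  obtain ⟨g, hg, rfl⟩ := hA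
  exact ⟨g, mem_subH_of_preserves hg h, rfl⟩

lemma rMat_rat {a b : Fin n → F} (ha : InW F₀ P a) (hb : InW F₀ P b) (haa : hermForm n F q a a = 0)
    (hbb : hermForm n F q b b = 0) (hab : hermForm n F q a b = 0) {t : F} (ht : t ∈ F₀) :
    MIn (SubH q F₀ P) (rMat q a ((t * ζ) • b)) := by
  refine mIn_subH (exists_rMat_mem hF haa ?_ ?_) fun x hx => ?_
  · rw [herm_smul_left, herm_smul_right, hbb, mul_zero, mul_zero]
  · rw [herm_smul_right, hab, mul_zero]
  · rw [rMat_mulVec haa, smul_smul]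
    refine (hx.add (hb.smul ?_)).sub (ha.smul ?_)
    · rw [show hermForm n F q x a * (t * ζ) = t * (ζ * hermForm n F q x a) by ring]
      exact F₀.mul_mem ht (herm_rat hF hS hx ha)
    · rw [herm_smul_right, mul_pow, pow_q_of_mem hF hS ht, mul_assoc]
      refine F₀.mul_mem ht ?_
      rcases hS.sign with e | e <;> rw [e]
      · exact herm_rat hF hS hx hb
      · rw [neg_mul]; exact F₀.neg_mem (herm_rat hF hS hx hb)

lemma tMat_rat (hskew : ζ + ζ ^ q = 0) {w : Fin n → F} (hw : InW F₀ P w) (hww : hermForm n F q w w = 0)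
    {t : F} (ht : t ∈ F₀) : MIn (SubH q F₀ P) (tMat q w (t * ζ)) := by
  refine mIn_subH (exists_tMat_mem hF hww ?_) fun x hx => ?_
  · rw [mul_pow, pow_q_of_mem hF hS ht, ← mul_add, hskew, mul_zero]
  · rw [tMat_mulVec]
    refine hx.add (hw.smul ?_)
    rw [mul_assoc]
    exact F₀.mul_mem ht (herm_rat hF hS hx hw)

lemma preserves_of_fix {g : GL (Fin n) F} (hg : g ∈ Cfsg.Geo.subfieldSubgroup F₀ P) {w : Fin n → F}
    (hw : InW F₀ P w) (hw0 : w ≠ 0) (hgw : (g : Matrix (Fin n) (Fin n) F) *ᵥ w = w) :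
    ∀ v, InW F₀ P v → InW F₀ P ((g : Matrix (Fin n) (Fin n) F) *ᵥ v) := by
  obtain ⟨s, hs0, hs⟩ := scalar_of_mem_subfield hg
  obtain ⟨w', hw', e⟩ := hs w hw
  rw [hgw] at e
  have hs' : s ∈ F₀ := hw.scalar_mem hw' e fun h0 => hw0 (by rw [e, h0, smul_zero])
  intro v hv
  obtain ⟨u, hu, e'⟩ := hs v hv
  rw [e']
  exact hu.smul hs'

lemma sigma_comm {A : Matrix (Fin n) (Fin n) F} (h : ∀ v, InW F₀ P v → InW F₀ P (A *ᵥ v)) (x : Fin n → F) :
    sigma q P (A *ᵥ x) = A *ᵥ sigma q P x := by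
  obtain ⟨δ, hδ⟩ := exists_delta hF hS
  obtain ⟨a, b, ha, hb, rfl, hsx⟩ := exists_decomp hF hS hδ x
  rw [hsx, Matrix.mulVec_add, Matrix.mulVec_smul, Matrix.mulVec_add, Matrix.mulVec_smul, sigma_add hF,
    sigma_smul hF, (h a ha).sigma_eq hF hS, (h b hb).sigma_eq hF hS]

/-- A transvection in the subfield group fixing a rational vector has a rational centre. -/
lemma line_of_tMat_mem {v : Fin n → F} {c : F} (hc : c ≠ 0) {w : Fin n → F} (hw : InW F₀ P w) (hw0 : w ≠ 0)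
    (hwv : hermForm n F q w v = 0) (h : MIn (Cfsg.Geo.subfieldSubgroup F₀ P) (tMat q v c)) :
    ∃ (s : F) (u : Fin n → F), InW F₀ P u ∧ v = s • u := by
  by_cases hv0 : v = 0
  · exact ⟨0, 0, inW_zero, by rw [hv0, zero_smul]⟩
  obtain ⟨g, hg, e⟩ := h
  have hp := preserves_of_fix hF hS hg hw hw0 (by
    rw [e, tMat_mulVec, hwv, mul_zero, zero_smul, add_zero])
  rw [e] at hp
  obtain ⟨y, hy⟩ : ∃ y, hermForm n F q y v ≠ 0 := by
    by_contra hc
    push Not at hc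
    exact hv0 (herm_nondeg hF v fun y => herm_eq_zero_comm hF (hc y))
  have h1 := sigma_comm hF hS hp y
  rw [tMat_mulVec, tMat_mulVec, sigma_add hF, sigma_smul hF] at h1
  have h2 := add_left_cancel h1
  set k := (c * hermForm n F q y v) ^ q
  refine line_of_sigma hF hS (t := k⁻¹ * (c * hermForm n F q (sigma q P y) v)) ?_
  rw [mul_smul, ← h2, smul_smul, inv_mul_cancel₀ (pow_ne_zero _ (mul_ne_zero hc hy)), one_smul]

end CfsgLib.UnitGeo
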