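import Cfsg.Agent.UnitGeo.RatStructure
import Cfsg.Agent.OrthGeo.SingularSpan

/-! The quadratic form on the rational vectors of an orthogonal subfield structure of a Hermitian space. -/

set_option autoImplicit false
set_option linter.unusedSectionVars false

namespace CfsgLib.UnitGeo

open Cfsg Module CfsgLib.Unitary CfsgLib.Subfield54
open scoped Matrix MatrixGroups

variable {F : Type*} [Field F] {n q : ℕ} {F₀ : Subfield F} {P : GL (Fin n) F}

/-- The vector with the given rational coordinates. -/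
def emb (P : GL (Fin n) F) (u : Fin n → F₀) : Fin n → F :=
  (P : Matrix (Fin n) (Fin n) F) *ᵥ fun i => (u i : F)

lemma inW_emb (u : Fin n → F₀) : InW F₀ P (emb P u) := inW_col fun i => (u i).2

lemma exists_emb {v : Fin n → F} (hv : InW F₀ P v) : ∃ u : Fin n → F₀, emb P u = v :=
  ⟨fun i => ⟨_, hv i⟩, mulVec_P_inv P v⟩

lemma emb_add (u v : Fin n → F₀) : emb P (u + v) = emb P u + emb P v := by
  rw [emb, emb, emb, ← Matrix.mulVec_add]; rfl

lemma emb_smul (c : F₀) (u : Fin n → F₀) : emb P (c • u) = (c : F) • emb P u := by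
  rw [emb, emb, ← Matrix.mulVec_smul]; rfl

lemma emb_zero : emb P (0 : Fin n → F₀) = 0 := by
  simpa using emb_smul (P := P) (0 : F₀) 0

lemma emb_injective : Function.Injective (emb (F₀ := F₀) P) := fun u v h => by
  have h1 := congrArg (((P⁻¹ : GL (Fin n) F) : Matrix (Fin n) (Fin n) F) *ᵥ ·) h
  simp only [emb, mulVec_inv_P] at h1
  exact funext fun i => Subtype.ext (congrFun h1 i)

lemma emb_ne_zero {u : Fin n → F₀} (h : u ≠ 0) : emb P u ≠ 0 := fun h0 =>
  h (emb_injective (h0.trans emb_zero.symm))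

lemma two_mem : (2 : F) ∈ F₀ := by rw [← one_add_one_eq_two]; exact F₀.add_mem F₀.one_mem F₀.one_mem

variable [Fintype F] (hF : Fintype.card F = q ^ 2) (hS : RStr q F₀ 1 P)
include hF hS

lemma rat_one {a b : Fin n → F} (ha : InW F₀ P a) (hb : InW F₀ P b) : hermForm n F q a b ∈ F₀ := by
  simpa using herm_rat hF hS ha hb

lemma herm_symm_one {a b : Fin n → F} (ha : InW F₀ P a) (hb : InW F₀ P b) :
    hermForm n F q b a = hermForm n F q a b := by
  simpa using herm_W_symm hF hS ha hb

/-- Half the Hermitian norm, as a quadratic form over the subfield. -/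
noncomputable def q0 (u : Fin n → F₀) : F₀ :=
  ⟨hermForm n F q (emb P u) (emb P u) / 2, F₀.div_mem (rat_one hF hS (inW_emb u) (inW_emb u)) two_mem⟩

variable (h2 : (2 : F) ≠ 0)
include h2

lemma q0_polar (u v : Fin n → F₀) :
    ((QuadraticMap.polar (q0 hF hS) u v : F₀) : F) = hermForm n F q (emb P u) (emb P v) := by
  simp only [QuadraticMap.polar, q0, AddSubgroupClass.coe_sub, emb_add, herm_add_left, herm_add_right hF,
    herm_symm_one hF hS (inW_emb u) (inW_emb v)]
  field_simp
  ring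

lemma q0_eq_zero {u : Fin n → F₀} : q0 hF hS u = 0 ↔ hermForm n F q (emb P u) (emb P u) = 0 := by
  rw [Subtype.ext_iff]
  simp [q0, h2]

lemma q0_nondeg : Cfsg.Geo.IsNondegenerateQuadraticForm (q0 hF hS) where
  smul c v := Subtype.ext (by
    simp only [q0, emb_smul, herm_smul_left, herm_smul_right, Subfield.coe_mul, SubmonoidClass.coe_pow,
      pow_q_of_mem hF hS c.2]
    ring)
  polar_bilinear :=
    { add_left := fun x y v => Subtype.ext (by
        simp [q0_polar hF hS h2, emb_add, herm_add_left])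
      smul_left := fun c x v => Subtype.ext (by
        simp [q0_polar hF hS h2, emb_smul, herm_smul_left])
      add_right := fun v x y => Subtype.ext (by
        simp [q0_polar hF hS h2, emb_add, herm_add_right hF])
      smul_right := fun c v x => Subtype.ext (by
        simp [q0_polar hF hS h2, emb_smul, herm_smul_right, pow_q_of_mem hF hS c.2]) }
  nondegenerate v hv := by
    obtain ⟨w, hw, hvw⟩ : ∃ w, InW F₀ P w ∧ hermForm n F q (emb P v) w ≠ 0 := by
      by_contra hc
      push Not at hc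
      exact emb_ne_zero hv (eq_zero_of_W hF hS hc)
    obtain ⟨x, rfl⟩ := exists_emb hw
    refine ⟨⟨x, fun h => hvw ?_⟩, ⟨x, fun h => hvw ?_⟩⟩
    · have := congrArg (Subtype.val (p := (· ∈ F₀))) h
      rw [q0_polar hF hS h2, herm_symm_one hF hS (inW_emb v) (inW_emb x)] at this
      simpa using this
    · have := congrArg (Subtype.val (p := (· ∈ F₀))) h
      rw [q0_polar hF hS h2] at this
      simpa using this

lemma bform_q0 (u v : Fin n → F₀) :
    ((OrthGeo.bform (q0_nondeg hF hS h2) u v : F₀) : F) = hermForm n F q (emb P u) (emb P v) :=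
  q0_polar hF hS h2 u v

lemma herm_eq_zero_of_bform {u v : Fin n → F₀} (h : OrthGeo.bform (q0_nondeg hF hS h2) u v = 0) :
    hermForm n F q (emb P u) (emb P v) = 0 := by
  rw [← bform_q0 hF hS h2, h]; rfl

lemma bform_eq_zero_of_herm {u v : Fin n → F₀} (h : hermForm n F q (emb P u) (emb P v) = 0) :
    OrthGeo.bform (q0_nondeg hF hS h2) u v = 0 :=
  Subtype.ext ((bform_q0 hF hS h2 u v).trans h)

omit h2 in
/-- Rational vectors in the span of two rational vectors have rational coefficients. -/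
lemma mem_span_pair_of_emb (h2 : (2 : F) ≠ 0) {c a b : Fin n → F₀}
    (h : emb P c ∈ Submodule.span F {emb P a} ⊔ Submodule.span F {emb P b}) :
    c ∈ Submodule.span F₀ {a} ⊔ Submodule.span F₀ {b} := by
  obtain ⟨_, hx, _, hy, e⟩ := Submodule.mem_sup.1 h
  obtain ⟨s, rfl⟩ := Submodule.mem_span_singleton.1 hx
  obtain ⟨t, rfl⟩ := Submodule.mem_span_singleton.1 hy
  have e' := congrArg (sigma q P) e
  rw [sigma_add hF, sigma_of_line hF hS (inW_emb a), sigma_of_line hF hS (inW_emb b),
    (inW_emb c).sigma_eq hF hS] at e'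
  have hm : ∀ l : F, (l + l ^ q) / 2 ∈ F₀ := fun l => F₀.div_mem ((hS.fix _).2 (trace_pow_q hF l)) two_mem
  have : c = (⟨_, hm s⟩ : F₀) • a + (⟨_, hm t⟩ : F₀) • b := emb_injective (P := P) (by
    rw [emb_add, emb_smul, emb_smul]
    show emb P c = ((s + s ^ q) / 2) • emb P a + ((t + t ^ q) / 2) • emb P b
    calc emb P c = (1 / 2 : F) • (emb P c + emb P c) := by
          rw [← two_smul F, smul_smul, one_div, inv_mul_cancel₀ h2, one_smul]
      _ = _ := by conv_lhs => arg 2; arg 1; rw [← e]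
                  conv_lhs => arg 2; arg 2; rw [← e']
                  simp only [smul_add, smul_smul, div_eq_mul_inv, one_mul, add_mul]
                  module)
  rw [this]
  exact Submodule.add_mem _ (Submodule.mem_sup_left (Submodule.smul_mem _ _ (Submodule.mem_span_singleton_self a)))
    (Submodule.mem_sup_right (Submodule.smul_mem _ _ (Submodule.mem_span_singleton_self b)))

omit hF hS h2 in
lemma finrank_sup_singleton_le (S : Submodule F₀ (Fin n → F₀)) (x : Fin n → F₀) :
    finrank F₀ ↥(S ⊔ Submodule.span F₀ {x}) ≤ finrank F₀ S + 1 := by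
  have h3 := Submodule.finrank_add_le_finrank_add_finrank S (Submodule.span F₀ {x})
  have h4 : finrank F₀ (Submodule.span F₀ ({x} : Set (Fin n → F₀))) ≤ 1 :=
    (finrank_span_le_card _).trans (by simp)
  omega

omit hF hS h2 in
lemma finrank_span_singleton_le_one (x : Fin n → F₀) :
    finrank F₀ (Submodule.span F₀ ({x} : Set (Fin n → F₀))) ≤ 1 :=
  (finrank_span_le_card _).trans (by simp)

/-- A rational isotropic vector orthogonal to four rational vectors, outside the span of two others. -/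
lemma exists_iso_W (hn : 9 ≤ n) {a b c d u v : Fin n → F} (ha : InW F₀ P a) (hb : InW F₀ P b) (hc : InW F₀ P c)
    (hd : InW F₀ P d) (hu : InW F₀ P u) (hv : InW F₀ P v) :
    ∃ w, InW F₀ P w ∧ hermForm n F q w w = 0 ∧ w ≠ 0 ∧ hermForm n F q w a = 0 ∧ hermForm n F q w b = 0 ∧
      hermForm n F q w c = 0 ∧ hermForm n F q w d = 0 ∧ w ∉ Submodule.span F {u} ⊔ Submodule.span F {v} := by
  obtain ⟨a, rfl⟩ := exists_emb ha
  obtain ⟨b, rfl⟩ := exists_emb hb
  obtain ⟨c, rfl⟩ := exists_emb hc
  obtain ⟨d, rfl⟩ := exists_emb hd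
  obtain ⟨u, rfl⟩ := exists_emb hu
  obtain ⟨v, rfl⟩ := exists_emb hv
  set hQ := q0_nondeg hF hS h2
  set S := (Submodule.span F₀ {a} ⊔ Submodule.span F₀ {b}) ⊔ (Submodule.span F₀ {c} ⊔ Submodule.span F₀ {d})
    with hSdef
  obtain ⟨w, hw, hwQ, hw0, hwN⟩ := OrthGeo.exists_singular_avoid hQ (T := OrthGeo.perp hQ S)
    (P := Submodule.span F₀ {u} ⊔ Submodule.span F₀ {v}) (by
      have h1 := OrthGeo.finrank_perp_add hQ S
      have h3 := Submodule.finrank_add_le_finrank_add_finrank (Submodule.span F₀ {a} ⊔ Submodule.span F₀ {b})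
        (Submodule.span F₀ {c} ⊔ Submodule.span F₀ {d})
      have h4 := finrank_sup_singleton_le (Submodule.span F₀ {a}) b
      have h5 := finrank_sup_singleton_le (Submodule.span F₀ {c}) d
      have h6 := finrank_sup_singleton_le (Submodule.span F₀ {u}) v
      have := finrank_span_singleton_le_one a
      have := finrank_span_singleton_le_one c
      have := finrank_span_singleton_le_one u
      rw [← hSdef] at h3
      rw [Fintype.card_fin] at h1
      omega)
  rw [hSdef, OrthGeo.perp_sup hQ, Submodule.mem_inf, OrthGeo.mem_perp_pair hQ, OrthGeo.mem_perp_pair hQ] at hw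
  have hz : ∀ x, OrthGeo.bform hQ x w = 0 → hermForm n F q (emb P w) (emb P x) = 0 := fun x hx =>
    herm_eq_zero_comm hF (herm_eq_zero_of_bform hF hS h2 hx)
  exact ⟨_, inW_emb w, (q0_eq_zero hF hS h2).1 hwQ, emb_ne_zero hw0, hz a hw.1.1, hz b hw.1.2, hz c hw.2.1,
    hz d hw.2.2, fun h => hwN (mem_span_pair_of_emb hF hS h2 h)⟩

/-- A rational isotropic vector orthogonal to `d` pairing to one with `c`. -/
lemma exists_iso_partner (hn : 9 ≤ n) {c d : Fin n → F} (hc : InW F₀ P c) (hd : InW F₀ P d)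
    (hcd : c ∉ Submodule.span F {d}) :
    ∃ e, InW F₀ P e ∧ hermForm n F q e e = 0 ∧ hermForm n F q e d = 0 ∧ hermForm n F q c e = 1 := by
  obtain ⟨c, rfl⟩ := exists_emb hc
  obtain ⟨d, rfl⟩ := exists_emb hd
  obtain ⟨e, he, heQ, hce⟩ := OrthGeo.exists_singular_b_one (q0_nondeg hF hS h2) (Submodule.span F₀ {d})
    (c := c) (fun hm => by
      obtain ⟨t, rfl⟩ := Submodule.mem_span_singleton.1 hm
      exact hcd (Submodule.mem_span_singleton.2 ⟨t, (emb_smul t d).symm⟩)) (by
      have := finrank_span_singleton_le_one d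
      rw [Fintype.card_fin]
      omega)
  rw [OrthGeo.mem_perp_span_singleton] at he
  refine ⟨_, inW_emb e, (q0_eq_zero hF hS h2).1 heQ, herm_eq_zero_comm hF (herm_eq_zero_of_bform hF hS h2 he), ?_⟩
  rw [← bform_q0 hF hS h2, hce]; rfl

/-- The rational vectors orthogonal to a rational vector are sums of isotropic ones. -/
lemma iso_induction (hn : 9 ≤ n) {c : Fin n → F} (hc : InW F₀ P c) (motive : (Fin n → F) → Prop)
    (hadd : ∀ u v, InW F₀ P u → InW F₀ P v → motive u → motive v → motive (u + v))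
    (hs : ∀ u, InW F₀ P u → hermForm n F q u c = 0 → hermForm n F q u u = 0 → motive u)
    {w : Fin n → F} (hw : InW F₀ P w) (hwc : hermForm n F q w c = 0) : motive w := by
  obtain ⟨c, rfl⟩ := exists_emb hc
  obtain ⟨w, rfl⟩ := exists_emb hw
  refine OrthGeo.perp_induction (q0_nondeg hF hS h2) (Submodule.span F₀ {c}) (by
      have := finrank_span_singleton_le_one c
      rw [Fintype.card_fin]
      omega) (fun u => motive (emb P u)) (fun u _ v _ h h' => ?_) (fun s hs' hsQ => ?_) ?_
  · show motive (emb P (u + v))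
    rw [emb_add]
    exact hadd _ _ (inW_emb u) (inW_emb v) h h'
  · exact hs _ (inW_emb s) (herm_eq_zero_comm hF (herm_eq_zero_of_bform hF hS h2
      ((OrthGeo.mem_perp_span_singleton _).1 hs'))) ((q0_eq_zero hF hS h2).1 hsQ)
  · exact (OrthGeo.mem_perp_span_singleton _).2 (bform_eq_zero_of_herm hF hS h2 (herm_eq_zero_comm hF hwc))

/-- An isotropic rational vector with prescribed products with a non-degenerate pair. -/
lemma exists_iso_prescribed (hn : 9 ≤ n) {a b : Fin n → F} (ha : InW F₀ P a) (hb : InW F₀ P b)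
    (hD : hermForm n F q a a * hermForm n F q b b - hermForm n F q a b ^ 2 ≠ 0) {w₁ w₂ : F} (h₁ : w₁ ∈ F₀)
    (h₂ : w₂ ∈ F₀) :
    ∃ e, InW F₀ P e ∧ hermForm n F q e e = 0 ∧ hermForm n F q a e = w₁ ∧ hermForm n F q b e = w₂ := by
  set D := hermForm n F q a a * hermForm n F q b b - hermForm n F q a b ^ 2 with hDdef
  set x₁ := (w₁ * hermForm n F q b b - w₂ * hermForm n F q a b) / D with hx₁
  set x₂ := (w₂ * hermForm n F q a a - w₁ * hermForm n F q a b) / D with hx₂
  have hr := @rat_one F _ n q F₀ P _ hF hS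
  have hDm : D ∈ F₀ := F₀.sub_mem (F₀.mul_mem (hr ha ha) (hr hb hb)) (pow_mem (hr ha hb) 2)
  have hm₁ : x₁ ∈ F₀ := F₀.div_mem (F₀.sub_mem (F₀.mul_mem h₁ (hr hb hb)) (F₀.mul_mem h₂ (hr ha hb))) hDm
  have hm₂ : x₂ ∈ F₀ := F₀.div_mem (F₀.sub_mem (F₀.mul_mem h₂ (hr ha ha)) (F₀.mul_mem h₁ (hr ha hb))) hDm
  obtain ⟨a', rfl⟩ := exists_emb ha
  obtain ⟨b', rfl⟩ := exists_emb hb
  set hQ := q0_nondeg hF hS h2
  obtain ⟨z, hz, hzQ⟩ := OrthGeo.exists_singular_translate hQ (Submodule.span F₀ {a'} ⊔ Submodule.span F₀ {b'}) (by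
      have := finrank_sup_singleton_le (Submodule.span F₀ {a'}) b'
      have := finrank_span_singleton_le_one a'
      rw [Fintype.card_fin]
      omega) ((⟨x₁, hm₁⟩ : F₀) • a' + (⟨x₂, hm₂⟩ : F₀) • b')
  rw [OrthGeo.mem_perp_pair hQ] at hz
  refine ⟨_, inW_emb _, (q0_eq_zero hF hS h2).1 hzQ, ?_, ?_⟩
  · rw [emb_add, emb_add, emb_smul, emb_smul, herm_add_right hF, herm_add_right hF, herm_smul_right,
      herm_smul_right, herm_eq_zero_of_bform hF hS h2 hz.1, pow_q_of_mem hF hS hm₁, pow_q_of_mem hF hS hm₂,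
      add_zero]
    rw [hx₁, hx₂, div_mul_eq_mul_div, div_mul_eq_mul_div, ← add_div, div_eq_iff hD, hDdef]
    ring
  · rw [emb_add, emb_add, emb_smul, emb_smul, herm_add_right hF, herm_add_right hF, herm_smul_right,
      herm_smul_right, herm_eq_zero_of_bform hF hS h2 hz.2, pow_q_of_mem hF hS hm₁, pow_q_of_mem hF hS hm₂,
      add_zero, herm_symm_one hF hS (inW_emb a') (inW_emb b')]
    rw [hx₁, hx₂, div_mul_eq_mul_div, div_mul_eq_mul_div, ← add_div, div_eq_iff hD, hDdef]
    ring

end CfsgLib.UnitGeo
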