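import Cfsg.Agent.Classical.Unitary.Generation
import Cfsg.Agent.Classical.Unitary.Isotropic
import Cfsg.Agent.Eq.Def_GeometricClasses
import Cfsg.Agent.Eq.Def_LieClassical

/-! Root elements of the special unitary group, as matrices in a subgroup of `GL`. -/

set_option autoImplicit false
set_option linter.unusedSectionVars false

namespace CfsgLib.UnitGeo

open Cfsg Module CfsgLib.Unitary
open scoped Matrix MatrixGroups

variable {F : Type*} [Field F] {n q : ℕ}

/-- The subgroup contains an element with this matrix. -/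
def MIn (H : Subgroup (GL (Fin n) F)) (A : Matrix (Fin n) (Fin n) F) : Prop :=
  ∃ g ∈ H, (g : Matrix (Fin n) (Fin n) F) = A

lemma MIn.mono {H K : Subgroup (GL (Fin n) F)} (hle : H ≤ K) {A : Matrix (Fin n) (Fin n) F} (h : MIn H A) :
    MIn K A :=
  let ⟨g, hg, e⟩ := h; ⟨g, hle hg, e⟩

lemma MIn.mul {H : Subgroup (GL (Fin n) F)} {A B : Matrix (Fin n) (Fin n) F} (h : MIn H A) (h' : MIn H B) :
    MIn H (A * B) := by
  obtain ⟨g, hg, rfl⟩ := h
  obtain ⟨g', hg', rfl⟩ := h'
  exact ⟨g * g', H.mul_mem hg hg', rfl⟩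

lemma MIn.of_mul_eq_one {H : Subgroup (GL (Fin n) F)} {A B : Matrix (Fin n) (Fin n) F} (h : MIn H A)
    (e : A * B = 1) : MIn H B := by
  obtain ⟨g, hg, rfl⟩ := h
  exact ⟨g⁻¹, H.inv_mem hg, left_inv_eq_right_inv (Units.inv_mul g) e⟩

lemma matrix_ext {A B : Matrix (Fin n) (Fin n) F} (h : ∀ x, A *ᵥ x = B *ᵥ x) : A = B :=
  Matrix.ext_of_mulVec_single fun _ => h _

/-- The transvection matrix `x ↦ x + c h(x,v) v`. -/
def tMat (q : ℕ) (v : Fin n → F) (c : F) : Matrix (Fin n) (Fin n) F := rankOne q (c • v) v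

/-- The root element matrix `x ↦ x + h(x,a) b - h(x,b) a`. -/
def rMat (q : ℕ) (a b : Fin n → F) : Matrix (Fin n) (Fin n) F := rankOne q b a * rankOne q (-a) b

variable [Fintype F]

lemma tMat_mulVec (v : Fin n → F) (c : F) (x : Fin n → F) :
    tMat q v c *ᵥ x = x + (c * hermForm n F q x v) • v := by
  rw [tMat, rankOne_mulVec, smul_smul, mul_comm]

lemma rMat_mulVec {a b : Fin n → F} (ha : hermForm n F q a a = 0) (x : Fin n → F) :
    rMat q a b *ᵥ x = x + hermForm n F q x a • b - hermForm n F q x b • a := by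
  rw [rMat, ← Matrix.mulVec_mulVec, rankOne_mulVec, rankOne_mulVec, herm_add_left, herm_smul_left,
    herm_neg_left, ha]
  module

variable (hF : Fintype.card F = q ^ 2)
include hF

lemma tMat_mul {v : Fin n → F} (hv : hermForm n F q v v = 0) (c d : F) :
    tMat q v c * tMat q v d = tMat q v (c + d) := by
  refine matrix_ext fun x => ?_
  rw [← Matrix.mulVec_mulVec, tMat_mulVec, tMat_mulVec, tMat_mulVec, herm_add_left, herm_smul_left, hv]
  module

lemma tMat_zero (v : Fin n → F) : tMat q v 0 = 1 :=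
  matrix_ext fun x => by rw [tMat_mulVec, zero_mul, zero_smul, add_zero, Matrix.one_mulVec]

lemma tMat_smul (v : Fin n → F) (s c : F) : tMat q (s • v) c = tMat q v (c * s ^ (q + 1)) := by
  refine matrix_ext fun x => ?_
  rw [tMat_mulVec, tMat_mulVec, herm_smul_right, smul_smul]
  congr 2
  ring

lemma rMat_mul {a a' b : Fin n → F} (hb : hermForm n F q b b = 0) (ha : hermForm n F q b a = 0)
    (ha' : hermForm n F q b a' = 0) (haa' : hermForm n F q a' a = 0) :
    rMat q b a * rMat q b a' = rMat q b (a + a') := by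
  refine matrix_ext fun x => ?_
  rw [← Matrix.mulVec_mulVec, rMat_mulVec hb, rMat_mulVec hb, rMat_mulVec hb]
  simp only [herm_sub_left, herm_add_left, herm_smul_left, herm_add_right hF, hb, ha,
    herm_eq_zero_comm hF ha', haa']
  module

lemma rMat_neg_mul {a b : Fin n → F} (ha : hermForm n F q a a = 0) (hb : hermForm n F q b b = 0)
    (hab : hermForm n F q a b = 0) : rMat q a b * rMat q b a = 1 := by
  refine matrix_ext fun x => ?_
  rw [← Matrix.mulVec_mulVec, rMat_mulVec ha, rMat_mulVec hb, Matrix.one_mulVec]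
  simp only [herm_sub_left, herm_add_left, herm_smul_left, ha, hb, hab, herm_eq_zero_comm hF hab]
  module

lemma rMat_add_smul {a b : Fin n → F} (hb : hermForm n F q b b = 0) (hab : hermForm n F q b a = 0) (k : F) :
    rMat q b (a + k • b) = rMat q b a * tMat q b (k - k ^ q) := by
  refine matrix_ext fun x => ?_
  rw [← Matrix.mulVec_mulVec, tMat_mulVec, rMat_mulVec hb, rMat_mulVec hb]
  simp only [herm_add_left, herm_smul_left, herm_add_right hF, herm_smul_right, hb, hab]
  module

lemma tMat_polar {v c : Fin n → F} (hv : hermForm n F q v v = 0) (hc : hermForm n F q c c = 0)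
    (hvc : hermForm n F q v c = 0) (g α : F) :
    tMat q (v + (α + 1) • c) g * tMat q (v + α • c) (-g) * tMat q (v + c) (-g) * tMat q v g =
      tMat q c (g * (α + α ^ q)) := by
  refine matrix_ext fun x => ?_
  simp only [← Matrix.mulVec_mulVec, tMat_mulVec, herm_add_left, herm_smul_left, herm_add_right hF,
    herm_smul_right, hv, hc, hvc, herm_eq_zero_comm hF hvc, add_pow_q hF, one_pow]
  module

lemma conj_tMat {g : GL (Fin n) F}
    (hg : ∀ x y, hermForm n F q ((g : Matrix (Fin n) (Fin n) F) *ᵥ x) ((g : Matrix (Fin n) (Fin n) F) *ᵥ y) =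
      hermForm n F q x y) (v : Fin n → F) (c : F) :
    (g : Matrix (Fin n) (Fin n) F) * tMat q v c * ((g⁻¹ : GL (Fin n) F) : Matrix (Fin n) (Fin n) F) =
      tMat q ((g : Matrix (Fin n) (Fin n) F) *ᵥ v) c := by
  refine matrix_ext fun x => ?_
  obtain ⟨y, rfl⟩ : ∃ y, x = (g : Matrix (Fin n) (Fin n) F) *ᵥ y :=
    ⟨((g⁻¹ : GL (Fin n) F) : Matrix (Fin n) (Fin n) F) *ᵥ x, by rw [Matrix.mulVec_mulVec, Units.mul_inv, Matrix.one_mulVec]⟩
  simp only [← Matrix.mulVec_mulVec]
  rw [Matrix.mulVec_mulVec y, Units.inv_mul, Matrix.one_mulVec, tMat_mulVec, tMat_mulVec, Matrix.mulVec_add,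
    Matrix.mulVec_smul, hg]

lemma conj_rMat {g : GL (Fin n) F}
    (hg : ∀ x y, hermForm n F q ((g : Matrix (Fin n) (Fin n) F) *ᵥ x) ((g : Matrix (Fin n) (Fin n) F) *ᵥ y) =
      hermForm n F q x y) {a : Fin n → F} (b : Fin n → F) (ha : hermForm n F q a a = 0) :
    (g : Matrix (Fin n) (Fin n) F) * rMat q a b * ((g⁻¹ : GL (Fin n) F) : Matrix (Fin n) (Fin n) F) =
      rMat q ((g : Matrix (Fin n) (Fin n) F) *ᵥ a) ((g : Matrix (Fin n) (Fin n) F) *ᵥ b) := by
  refine matrix_ext fun x => ?_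
  have ha' : hermForm n F q ((g : Matrix (Fin n) (Fin n) F) *ᵥ a) ((g : Matrix (Fin n) (Fin n) F) *ᵥ a) = 0 :=
    (hg a a).trans ha
  obtain ⟨y, rfl⟩ : ∃ y, x = (g : Matrix (Fin n) (Fin n) F) *ᵥ y :=
    ⟨((g⁻¹ : GL (Fin n) F) : Matrix (Fin n) (Fin n) F) *ᵥ x, by rw [Matrix.mulVec_mulVec, Units.mul_inv, Matrix.one_mulVec]⟩
  simp only [← Matrix.mulVec_mulVec]
  rw [Matrix.mulVec_mulVec y, Units.inv_mul, Matrix.one_mulVec, rMat_mulVec ha, rMat_mulVec ha',
    Matrix.mulVec_sub, Matrix.mulVec_add, Matrix.mulVec_smul, Matrix.mulVec_smul, hg, hg]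

lemma tMat_preserves {v : Fin n → F} (hv : hermForm n F q v v = 0) {c : F} (hc : c + c ^ q = 0)
    (x y : Fin n → F) : hermForm n F q (tMat q v c *ᵥ x) (tMat q v c *ᵥ y) = hermForm n F q x y :=
  rankOne_self_preserves hF v c (by rw [hv, mul_zero, add_zero, hc]) x y

lemma rMat_preserves {a b : Fin n → F} (ha : hermForm n F q a a = 0) (hb : hermForm n F q b b = 0)
    (hab : hermForm n F q a b = 0) (x y : Fin n → F) :
    hermForm n F q (rMat q a b *ᵥ x) (rMat q a b *ᵥ y) = hermForm n F q x y := by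
  rw [rMat_mulVec ha, rMat_mulVec ha]
  have hya : hermForm n F q a y = hermForm n F q y a ^ q := herm_conj hF y a
  have hyb : hermForm n F q b y = hermForm n F q y b ^ q := herm_conj hF y b
  simp only [herm_sub_left, herm_add_left, herm_smul_left, herm_sub_right hF, herm_add_right hF, herm_smul_right,
    ha, hb, hab, herm_eq_zero_comm hF hab, hya, hyb]
  ring

lemma exists_tMat_mem {v : Fin n → F} (hv : hermForm n F q v v = 0) {c : F} (hc : c + c ^ q = 0) :
    MIn (Cfsg.GU n F q ⊓ Cfsg.Geo.specialLinear (Fin n) F) (tMat q v c) := by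
  have hd : (tMat q v c).det = 1 := by rw [tMat, det_rankOne, herm_smul_left, hv, mul_zero, add_zero]
  refine ⟨Matrix.GeneralLinearGroup.mkOfDetNeZero (tMat q v c) (by rw [hd]; exact one_ne_zero), ⟨?_, ?_⟩, rfl⟩
  · exact tMat_preserves hF hv hc
  · exact Units.ext hd

lemma exists_rMat_mem {a b : Fin n → F} (ha : hermForm n F q a a = 0) (hb : hermForm n F q b b = 0)
    (hab : hermForm n F q a b = 0) :
    MIn (Cfsg.GU n F q ⊓ Cfsg.Geo.specialLinear (Fin n) F) (rMat q a b) := by
  have hd : (rMat q a b).det = 1 := by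
    rw [rMat, Matrix.det_mul, det_rankOne, det_rankOne, herm_neg_left, herm_eq_zero_comm hF hab, hab]
    ring
  refine ⟨Matrix.GeneralLinearGroup.mkOfDetNeZero (rMat q a b) (by rw [hd]; exact one_ne_zero), ⟨?_, ?_⟩, rfl⟩
  · exact rMat_preserves hF ha hb hab
  · exact Units.ext hd

lemma exists_ne_pow_q : ∃ l : F, l ^ q ≠ l := by
  by_contra h
  push Not at h
  have h1 := card_fixed hF
  rw [Nat.card_congr (Equiv.subtypeUnivEquiv h), Nat.card_eq_fintype_card, hF] at h1
  have := two_le_q hF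
  nlinarith

/-- The special unitary group inside `GL` is generated by its transvections. -/
lemma le_of_tMat_mem (h32 : ¬ (n = 3 ∧ q = 2)) {H : Subgroup (GL (Fin n) F)}
    (hH : ∀ v : Fin n → F, ∀ c : F, hermForm n F q v v = 0 → c + c ^ q = 0 → MIn H (tMat q v c)) :
    Cfsg.GU n F q ⊓ Cfsg.Geo.specialLinear (Fin n) F ≤ H := by
  rintro g ⟨hgI, hgd⟩
  have hd : (g : Matrix (Fin n) (Fin n) F).det = 1 := congrArg Units.val hgd
  set A : ↥(SU n F q) := ⟨⟨(g : Matrix (Fin n) (Fin n) F), hd⟩, hgI⟩ with hA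
  set φ : ↥(SU n F q) →* GL (Fin n) F := Matrix.SpecialLinearGroup.toGL.comp (SU n F q).subtype with hφ
  have hle : transvGroup n F q ≤ H.comap φ := by
    refine (Subgroup.closure_le _).2 ?_
    rintro B ⟨v, c, hv, hB⟩
    by_cases hv0 : v = 0
    · have : φ B = 1 := Units.ext (by
        show ((B : Matrix.SpecialLinearGroup (Fin n) F) : Matrix (Fin n) (Fin n) F) = 1
        rw [hB, unitaryTransvection, hv0]
        simp [Matrix.vecMulVec_zero, Matrix.zero_vecMulVec])
      show φ B ∈ H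
      rw [this]
      exact H.one_mem
    have hc : c + c ^ q = 0 := by
      by_contra hc
      obtain ⟨x, hx⟩ : ∃ x, hermForm n F q x v = 1 := by
        obtain ⟨y, hy⟩ : ∃ y, hermForm n F q v y ≠ 0 := by
          by_contra h
          push Not at h
          exact hv0 (herm_nondeg hF v h)
        refine ⟨(hermForm n F q y v)⁻¹ • y, ?_⟩
        rw [herm_smul_left, inv_mul_cancel₀]
        exact fun h0 => hy (herm_eq_zero_comm hF h0)
      have h1 := B.2 x x
      have hxv : hermForm n F q v x = 1 := by rw [herm_conj hF x v, hx, one_pow]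
      change hermForm n F q (((B : Matrix.SpecialLinearGroup (Fin n) F) : Matrix (Fin n) (Fin n) F) *ᵥ x)
        (((B : Matrix.SpecialLinearGroup (Fin n) F) : Matrix (Fin n) (Fin n) F) *ᵥ x) = _ at h1
      rw [hB, unitaryTransvection_eq, rankOne_mulVec, hx, one_smul] at h1
      simp only [herm_add_left, herm_add_right hF, herm_smul_left, herm_smul_right, hx, hxv, hv] at h1
      exact hc (by linear_combination h1)
    obtain ⟨k, hk, e⟩ := hH v c hv hc
    show φ B ∈ H
    rwa [show φ B = k from Units.ext (by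
      show ((B : Matrix.SpecialLinearGroup (Fin n) F) : Matrix (Fin n) (Fin n) F) = _
      rw [hB, e, tMat, unitaryTransvection_eq])]
  have := hle ((transvGroup_eq_top hF h32).symm ▸ Subgroup.mem_top A)
  rwa [Subgroup.mem_comap, show φ A = g from Units.ext rfl] at this

end CfsgLib.UnitGeo
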